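/-
Regular p-groups: powers form subgroups, the criterion with first powers.
-/
import Mathlib
import Cfsg.Prelude.Def_PLocal
import Cfsg.Agent.Lib.PGroupCounting.Maximal

set_option autoImplicit false

open scoped commutatorElement

namespace CfsgLib.RegularP

open Cfsg

variable {G : Type*} [Group G] {p : ℕ}

/-- The defining property of regularity at exponent `p ^ n`. -/
def PowProperty (p n : ℕ) (G : Type*) [Group G] : Prop :=
  ∀ a b : G, ∃ c ∈ powerClosure p n ⁅Subgroup.closure ({a, b} : Set G), Subgroup.closure ({a, b} : Set G)⁆,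
    (a * b) ^ (p ^ n) = a ^ (p ^ n) * b ^ (p ^ n) * c

theorem pow_mem_powerClosure {n : ℕ} {H : Subgroup G} {x : G} (hx : x ∈ H) :
    x ^ p ^ n ∈ powerClosure p n H :=
  Subgroup.subset_closure ⟨x, hx, rfl⟩

theorem powerClosure_le_self (n : ℕ) (H : Subgroup G) : powerClosure p n H ≤ H := by
  rw [powerClosure, Subgroup.closure_le]
  rintro _ ⟨x, hx, rfl⟩
  exact pow_mem hx _

theorem powerClosure_mono {n : ℕ} {H K : Subgroup G} (h : H ≤ K) :
    powerClosure p n H ≤ powerClosure p n K := by
  rw [powerClosure, powerClosure]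
  exact Subgroup.closure_mono fun _ ⟨x, hx, he⟩ => ⟨x, h hx, he⟩

theorem closure_pair_le {a b : G} {H : Subgroup G} (ha : a ∈ H) (hb : b ∈ H) :
    Subgroup.closure ({a, b} : Set G) ≤ H := by
  rw [Subgroup.closure_le]
  rintro x (rfl | rfl)
  · exact ha
  · exact hb

theorem conj_mem_powerClosure {n : ℕ} {H : Subgroup G} {h x : G}
    (hH : ∀ y ∈ H, h * y * h⁻¹ ∈ H) (hx : x ∈ powerClosure p n H) :
    h * x * h⁻¹ ∈ powerClosure p n H := by
  induction hx using Subgroup.closure_induction with
  | mem x hx =>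
    obtain ⟨y, hy, rfl⟩ := hx
    rw [← conj_pow]
    exact pow_mem_powerClosure (hH y hy)
  | one => simpa using (powerClosure p n H).one_mem
  | mul x y _ _ ihx ihy => simpa [mul_assoc] using mul_mem ihx ihy
  | inv x _ ih => simpa [mul_assoc] using inv_mem ih

theorem conj_mem_commutator {H : Subgroup G} {h y : G} (hh : h ∈ H) (hy : y ∈ ⁅H, H⁆) :
    h * y * h⁻¹ ∈ ⁅H, H⁆ := by
  have h1 := Subgroup.commutator_le_self H hy
  have h2 := mul_mem (Subgroup.commutator_mem_commutator hh h1) hy
  simpa [commutatorElement_def] using h2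

/-- In a finite `p`-group with the property at `p ^ n` the `p ^ n`-th powers of a subgroup form a subgroup. -/
theorem powerClosure_eq [Finite G] [Fact p.Prime] (hG : IsPGroup p G) {n : ℕ} (hQ : PowProperty p n G) :
    ∀ (H : Subgroup G) {y : G}, y ∈ powerClosure p n H → ∃ x ∈ H, y = x ^ p ^ n := by
  suffices h : ∀ (m : ℕ) (H : Subgroup G), Nat.card H = m → ∀ x ∈ H, ∀ y ∈ H,
      ∃ z ∈ H, x ^ p ^ n * y ^ p ^ n = z ^ p ^ n by
    intro H y hy
    induction hy using Subgroup.closure_induction with
    | mem y hy => exact hy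
    | one => exact ⟨1, one_mem H, (one_pow _).symm⟩
    | mul u v _ _ ihu ihv =>
      obtain ⟨x, hx, rfl⟩ := ihu
      obtain ⟨z, hz, rfl⟩ := ihv
      exact h _ H rfl x hx z hz
    | inv u _ ih =>
      obtain ⟨x, hx, rfl⟩ := ih
      exact ⟨x⁻¹, inv_mem hx, (inv_pow x _).symm⟩
  intro m
  induction m using Nat.strong_induction_on with
  | _ m ih =>
    intro H hm x hx y hy
    by_cases hcom : Commute x y
    · exact ⟨x * y, mul_mem hx hy, (hcom.mul_pow _).symm⟩
    set L := Subgroup.closure ({x, y} : Set G) with hL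
    by_cases hLH : L = H
    swap
    · have hlt : Nat.card L < m := by
        rw [← hm]
        refine lt_of_le_of_ne (Subgroup.card_le_of_le (closure_pair_le hx hy)) fun he => hLH ?_
        exact Subgroup.eq_of_le_of_card_ge (closure_pair_le hx hy) he.ge
      obtain ⟨z, hz, he⟩ := ih _ hlt L rfl x (Subgroup.subset_closure (by simp)) y
        (Subgroup.subset_closure (by simp))
      exact ⟨z, closure_pair_le hx hy hz, he⟩
    subst hLH
    obtain ⟨c, hc, he⟩ := hQ x y
    have hne : L ≠ ⊥ := fun h => by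
      have h1 : x = 1 := Subgroup.mem_bot.1 (h ▸ hx)
      exact hcom (h1 ▸ Commute.one_left y)
    have hder : ⁅L, L⁆ ≠ L := by
      intro h
      haveI : Group.IsNilpotent L := (hG.to_subgroup L).isNilpotent
      haveI := (Subgroup.nontrivial_iff_ne_bot L).2 hne
      apply (Group.IsSolvable.commutator_lt_top_of_nontrivial (G := L)).ne
      exact Subgroup.map_injective L.subtype_injective (by
        rw [commutator_def, Subgroup.map_commutator, ← MonoidHom.range_eq_map, Subgroup.range_subtype, h])
    have hlt : Nat.card ↥⁅L, L⁆ < m := by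
      rw [← hm]
      refine lt_of_le_of_ne (Subgroup.card_le_of_le (Subgroup.commutator_le_self L)) fun he => hder ?_
      exact Subgroup.eq_of_le_of_card_ge (Subgroup.commutator_le_self L) he.ge
    obtain ⟨d, hd, rfl⟩ : ∃ d ∈ ⁅L, L⁆, c = d ^ p ^ n := by
      clear he
      induction hc using Subgroup.closure_induction with
      | mem c hc => exact hc
      | one => exact ⟨1, one_mem _, (one_pow _).symm⟩
      | mul u v _ _ ihu ihv =>
        obtain ⟨s, hs, rfl⟩ := ihu
        obtain ⟨t, ht, rfl⟩ := ihv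
        exact ih _ hlt _ rfl s hs t ht
      | inv u _ ihu =>
        obtain ⟨s, hs, rfl⟩ := ihu
        exact ⟨s⁻¹, inv_mem hs, (inv_pow s _).symm⟩
    have hdL : d ∈ L := Subgroup.commutator_le_self L hd
    set M := Subgroup.closure ({x * y, d⁻¹} : Set G) with hM
    have hML : M ≤ L := closure_pair_le (mul_mem hx hy) (inv_mem hdL)
    have hMne : M ≠ L := by
      intro h
      -- `L` would be cyclic
      haveI : Group.IsNilpotent L := (hG.to_subgroup L).isNilpotent
      set C := Subgroup.zpowers (⟨x * y, mul_mem hx hy⟩ : L) with hC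
      have hdC : (⟨d, hdL⟩ : L) ∈ commutator L := by
        have h1 : ⁅L, L⁆ = (commutator L).map L.subtype := by
          rw [commutator_def, Subgroup.map_commutator, ← MonoidHom.range_eq_map, Subgroup.range_subtype]
        rw [h1] at hd
        obtain ⟨u, hu, hud⟩ := hd
        exact (show u = ⟨d, hdL⟩ from Subtype.ext hud) ▸ hu
      have htop : C ⊔ commutator L = ⊤ := by
        refine eq_top_iff.2 fun z _ => ?_
        have h2 : M ≤ (C ⊔ commutator L).map L.subtype := by
          rw [hM, Subgroup.closure_le]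
          rintro w (rfl | rfl)
          · exact ⟨⟨x * y, mul_mem hx hy⟩, Subgroup.mem_sup_left (Subgroup.mem_zpowers _), rfl⟩
          · exact ⟨⟨d, hdL⟩⁻¹, Subgroup.mem_sup_right (inv_mem hdC), rfl⟩
        obtain ⟨u, hu, huz⟩ := h2 (by rw [h]; exact z.2 : (z : G) ∈ M)
        exact (show u = z from Subtype.ext huz) ▸ hu
      have hC' : C = ⊤ := by
        by_contra hne'
        obtain ⟨K, hK, hCK⟩ := CfsgLib.PGroupCounting.exists_index_prime_ge (hG.to_subgroup L) hne'
        have hKn : K.Normal := CfsgLib.PGroupCounting.normal_of_index_eq (hG.to_subgroup L) hK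
        have hcyc : IsCyclic (L ⧸ K) :=
          isCyclic_of_prime_card (p := p) (by rw [← Subgroup.index_eq_card]; exact hK)
        have hle : commutator L ≤ K := by
          rw [commutator_def, Subgroup.commutator_le]
          intro u _ v _
          rw [← QuotientGroup.eq_one_iff, ← QuotientGroup.mk'_apply, map_commutatorElement,
            commutatorElement_eq_one_iff_mul_comm]
          obtain ⟨g, hg⟩ := hcyc.exists_generator
          obtain ⟨i, hi⟩ := Subgroup.mem_zpowers_iff.1 (hg (QuotientGroup.mk' K u))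
          obtain ⟨j, hj⟩ := Subgroup.mem_zpowers_iff.1 (hg (QuotientGroup.mk' K v))
          rw [← hi, ← hj]
          exact ((Commute.refl g).zpow_zpow i j).eq
        have hKtop : K = ⊤ := top_le_iff.1 (htop ▸ sup_le hCK hle)
        rw [hKtop, Subgroup.index_top] at hK
        exact (Fact.out : p.Prime).ne_one hK.symm
      obtain ⟨i, hi⟩ := Subgroup.mem_zpowers_iff.1 (hC' ▸ Subgroup.mem_top (⟨x, hx⟩ : L) : (⟨x, hx⟩ : L) ∈ C)
      obtain ⟨j, hj⟩ := Subgroup.mem_zpowers_iff.1 (hC' ▸ Subgroup.mem_top (⟨y, hy⟩ : L) : (⟨y, hy⟩ : L) ∈ C)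
      have hi' : (x * y) ^ i = x := congrArg Subtype.val hi
      have hj' : (x * y) ^ j = y := congrArg Subtype.val hj
      apply hcom
      have h3 := (Commute.refl (x * y)).zpow_zpow i j
      rwa [hi', hj'] at h3
    have hlt' : Nat.card M < m := by
      rw [← hm]
      exact lt_of_le_of_ne (Subgroup.card_le_of_le hML) fun he =>
        hMne (Subgroup.eq_of_le_of_card_ge hML he.ge)
    obtain ⟨z, hz, hze⟩ := ih _ hlt' M rfl (x * y) (Subgroup.subset_closure (by simp)) d⁻¹
      (Subgroup.subset_closure (by simp))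
    refine ⟨z, hML hz, ?_⟩
    rw [← hze, he, inv_pow, mul_inv_cancel_right]

/-- `[a ^ p^n, b]` is a product of `p^n`-th powers of the derived subgroup. -/
theorem inv_mul_conj_mem {n : ℕ} (hQ : PowProperty p n G) {H : Subgroup G} {a b : G} (ha : a ∈ H)
    (hb : b ∈ H) : (a ^ p ^ n)⁻¹ * (b * a ^ p ^ n * b⁻¹) ∈ powerClosure p n ⁅H, H⁆ := by
  set c := a⁻¹ * (b * a * b⁻¹) with hc
  have hcD : c ∈ ⁅H, H⁆ := by
    have := Subgroup.commutator_mem_commutator (inv_mem ha) hb
    rw [commutatorElement_def] at this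
    simpa [hc, mul_assoc] using this
  have hcH : c ∈ H := Subgroup.commutator_le_self H hcD
  obtain ⟨d, hd, he⟩ := hQ a c
  have h1 : a * c = b * a * b⁻¹ := by rw [hc, mul_inv_cancel_left]
  rw [h1, conj_pow] at he
  rw [he, mul_assoc (a ^ p ^ n), inv_mul_cancel_left]
  refine mul_mem (pow_mem_powerClosure hcD) ?_
  refine powerClosure_mono ?_ hd
  exact Subgroup.commutator_mono (closure_pair_le ha hcH) (closure_pair_le ha hcH)

/-- `[℧_n(H), ℧_n(H)] ≤ ℧_n(H')`. -/
theorem commutator_powerClosure_le {n : ℕ} (hQ : PowProperty p n G) (H : Subgroup G) :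
    ⁅powerClosure p n H, powerClosure p n H⁆ ≤ powerClosure p n ⁅H, H⁆ := by
  set D := powerClosure p n ⁅H, H⁆ with hD
  suffices h : ∀ x ∈ powerClosure p n H, ∀ b ∈ H, x⁻¹ * (b * x * b⁻¹) ∈ D by
    rw [Subgroup.commutator_le]
    intro x hx y hy
    have h1 := h x hx y (powerClosure_le_self n H hy)
    have h2 : x * (x⁻¹ * (y * x * y⁻¹))⁻¹ * x⁻¹ ∈ D :=
      conj_mem_powerClosure
        (fun z hz => conj_mem_commutator (powerClosure_le_self n H hx) hz) (inv_mem h1)
    rw [commutatorElement_def]
    simpa [mul_assoc] using h2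
  intro x hx
  induction hx using Subgroup.closure_induction with
  | mem x hx =>
    obtain ⟨a, ha, rfl⟩ := hx
    exact fun b hb => inv_mul_conj_mem hQ ha hb
  | one => intro b hb; simp
  | mul u v hu hv ihu ihv =>
    intro b hb
    have hvH : v⁻¹ ∈ H := inv_mem (powerClosure_le_self n H hv)
    have h1 := conj_mem_powerClosure (fun z hz => conj_mem_commutator hvH hz) (ihu b hb)
    have h2 := mul_mem h1 (ihv b hb)
    simpa [mul_assoc] using h2
  | inv u hu ih =>
    intro b hb
    have h1 := conj_mem_powerClosure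
      (fun z hz => conj_mem_commutator (powerClosure_le_self n H hu) hz) (inv_mem (ih b hb))
    simpa [mul_assoc] using h1

theorem powProperty_zero : PowProperty p 0 G := fun a b => ⟨1, one_mem _, by simp⟩

/-- The property at `p` gives it at every power of `p`. -/
theorem powProperty_of_one [Finite G] [Fact p.Prime] (hG : IsPGroup p G) (h1 : PowProperty p 1 G) :
    ∀ n, PowProperty p n G := by
  intro n
  induction n with
  | zero => exact powProperty_zero
  | succ n ih =>
    intro a b
    obtain ⟨c, hc, he⟩ := h1 a b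
    set H := Subgroup.closure ({a, b} : Set G) with hH
    obtain ⟨d, hd, rfl⟩ := powerClosure_eq hG h1 _ hc
    simp only [pow_one] at he
    have haH : a ∈ H := Subgroup.subset_closure (by simp)
    have hbH : b ∈ H := Subgroup.subset_closure (by simp)
    have hup : ∀ u v : G, u ∈ powerClosure p 1 H → v ∈ powerClosure p 1 H → ∀ e ∈
        powerClosure p n ⁅Subgroup.closure ({u, v} : Set G), Subgroup.closure ({u, v} : Set G)⁆,
        e ∈ powerClosure p (n + 1) ⁅H, H⁆ := by
      intro u v hu hv e hee
      have hle : ⁅Subgroup.closure ({u, v} : Set G), Subgroup.closure ({u, v} : Set G)⁆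
          ≤ powerClosure p 1 ⁅H, H⁆ :=
        (Subgroup.commutator_mono (closure_pair_le hu hv) (closure_pair_le hu hv)).trans
          (commutator_powerClosure_le h1 H)
      have h2 := powerClosure_mono (p := p) (n := n) hle hee
      refine (show powerClosure p n (powerClosure p 1 ⁅H, H⁆) ≤ _ from ?_) h2
      rw [powerClosure, Subgroup.closure_le]
      rintro _ ⟨z, hz, rfl⟩
      obtain ⟨w, hw, rfl⟩ := powerClosure_eq hG h1 _ hz
      rw [pow_one, ← pow_mul, ← pow_succ']
      exact pow_mem_powerClosure hw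
    have hap : a ^ p ∈ powerClosure p 1 H := by simpa using pow_mem_powerClosure (p := p) (n := 1) haH
    have hbp : b ^ p ∈ powerClosure p 1 H := by simpa using pow_mem_powerClosure (p := p) (n := 1) hbH
    have hdH : d ∈ H := Subgroup.commutator_le_self H hd
    have hdp : d ^ p ∈ powerClosure p 1 H := by simpa using pow_mem_powerClosure (p := p) (n := 1) hdH
    obtain ⟨e1, he1, hee1⟩ := ih (a ^ p * b ^ p) (d ^ p)
    obtain ⟨e2, he2, hee2⟩ := ih (a ^ p) (b ^ p)
    refine ⟨e2 * d ^ p ^ (n + 1) * e1, mul_mem (mul_mem (hup _ _ hap hbp _ he2)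
      (pow_mem_powerClosure hd)) (hup _ _ (mul_mem hap hbp) hdp _ he1), ?_⟩
    simp only [pow_succ' p n, pow_mul]
    rw [he, hee1, hee2]
    simp only [mul_assoc]

theorem isRegularPGroup_iff [Finite G] [Fact p.Prime] (hG : IsPGroup p G) :
    IsRegularPGroup p G ↔ ∀ a b : G, ∃ c ∈ ⁅Subgroup.closure ({a, b} : Set G),
      Subgroup.closure ({a, b} : Set G)⁆, (a * b) ^ p = a ^ p * b ^ p * c ^ p := by
  constructor
  · intro h a b
    have h1 : PowProperty p 1 G := fun x y => h.2 x y 1
    obtain ⟨c, hc, he⟩ := h1 a b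
    obtain ⟨d, hd, rfl⟩ := powerClosure_eq hG h1 _ hc
    exact ⟨d, hd, by simpa using he⟩
  · intro h
    refine ⟨hG, fun a b n => powProperty_of_one hG ?_ n a b⟩
    intro x y
    obtain ⟨c, hc, he⟩ := h x y
    exact ⟨c ^ p ^ 1, pow_mem_powerClosure hc, by simpa using he⟩

end CfsgLib.RegularP
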