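/-
Regular p-groups: equality of powers and powers of commutators.
-/
import Mathlib
import Cfsg.Prelude.Def_PLocal
import Cfsg.Agent.Lib.PGroupCounting.RegularOmega

set_option autoImplicit false

open scoped commutatorElement

namespace CfsgLib.RegularP

open Cfsg CfsgLib.PGroupCounting

variable {G : Type*} [Group G] [Finite G] {p : ℕ} [hp : Fact p.Prime]

/-- If the images of the generators commute modulo `Ω_k`, the product formula has no error term. -/
theorem mul_pow_of_commutator_pow (hG : IsRegularPGroup p G) (k : ℕ) {a b : G}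
    (h : ⁅a, b⁆ ^ p ^ k = 1) : (a * b) ^ p ^ k = a ^ p ^ k * b ^ p ^ k := by
  obtain ⟨c, hc, he⟩ := hG.2 a b k
  haveI := regularOmega_characteristic hG k
  set Ω := regularOmega hG k with hΩ
  set π := QuotientGroup.mk' Ω with hπ
  have hab : Commute (π a) (π b) := by
    rw [← commutatorElement_eq_one_iff_commute, ← map_commutatorElement]
    exact (QuotientGroup.eq_one_iff _).2 h
  have hD : ⁅Subgroup.closure ({a, b} : Set G), Subgroup.closure ({a, b} : Set G)⁆ ≤ Ω := by
    rw [← QuotientGroup.ker_mk' Ω, ← hπ, ← Subgroup.map_eq_bot_iff, Subgroup.map_commutator,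
      MonoidHom.map_closure, Subgroup.commutator_eq_bot_iff_le_centralizer, Subgroup.closure_le,
      Set.image_pair]
    intro x hx
    rw [SetLike.mem_coe, Subgroup.centralizer_closure, Subgroup.mem_centralizer_iff]
    rintro y hy
    simp only [Set.mem_insert_iff, Set.mem_singleton_iff] at hx hy
    rcases hx with rfl | rfl <;> rcases hy with rfl | rfl <;>
      first | rfl | exact hab.eq | exact hab.eq.symm
  have hle : powerClosure p k ⁅Subgroup.closure ({a, b} : Set G), Subgroup.closure ({a, b} : Set G)⁆ ≤ ⊥ := by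
    rw [powerClosure, Subgroup.closure_le]
    rintro y ⟨x, hx, rfl⟩
    exact hD hx
  rw [he, Subgroup.mem_bot.1 (hle hc), mul_one]

/-- `a ^ q = b ^ q` forces the commutator into `Ω_k`. -/
theorem commutator_pow_of_pow_eq (hG : IsRegularPGroup p G) (k : ℕ) :
    ∀ a b : G, a ^ p ^ k = b ^ p ^ k → ⁅a, b⁆ ^ p ^ k = 1 := by
  suffices h : ∀ (m : ℕ) (a b : G), Nat.card (Subgroup.closure ({a, b} : Set G)) = m →
      a ^ p ^ k = b ^ p ^ k → ⁅a, b⁆ ^ p ^ k = 1 from fun a b => h _ a b rfl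
  intro m
  induction m using Nat.strong_induction_on with
  | _ m ih =>
    intro a b hm hq
    by_cases hab : Commute a b
    · rw [commutatorElement_eq_one_iff_commute.2 hab, one_pow]
    set H := Subgroup.closure ({a, b} : Set G) with hH
    have haH : a ∈ H := Subgroup.subset_closure (by simp)
    have hbH : b ∈ H := Subgroup.subset_closure (by simp)
    have hHp : IsPGroup p H := hG.1.to_subgroup H
    have hne : Subgroup.zpowers (⟨a, haH⟩ : H) ≠ ⊤ := by
      intro htop
      apply hab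
      obtain ⟨i, hi⟩ := Subgroup.mem_zpowers_iff.mp (htop ▸ Subgroup.mem_top (⟨b, hbH⟩ : H))
      have h2 : a ^ i = b := congrArg Subtype.val hi
      rw [← h2]
      exact (Commute.refl a).zpow_right i
    obtain ⟨M', hM', haM'⟩ := exists_index_prime_ge hHp hne
    haveI := normal_of_index_eq hHp hM'
    set a' := b * a * b⁻¹ with ha'
    have hq' : a' ^ p ^ k = a ^ p ^ k := by
      rw [ha', conj_pow, hq, (Commute.refl b).pow_right (p ^ k) |>.eq, mul_inv_cancel_right]
    have hle : Subgroup.closure ({a', a} : Set G) ≤ M'.map H.subtype := by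
      rw [Subgroup.closure_le]
      rintro z (rfl | rfl)
      · exact ⟨⟨b, hbH⟩ * ⟨a, haH⟩ * ⟨b, hbH⟩⁻¹,
          (inferInstance : M'.Normal).conj_mem _ (haM' (Subgroup.mem_zpowers _)) _, rfl⟩
      · exact ⟨⟨z, haH⟩, haM' (Subgroup.mem_zpowers _), rfl⟩
    have hlt : Nat.card (Subgroup.closure ({a', a} : Set G)) < m := by
      refine lt_of_le_of_lt (Subgroup.card_le_of_le hle) ?_
      rw [← hm, Subgroup.card_map_of_injective H.subtype_injective, ← M'.card_mul_index, hM']
      exact lt_mul_of_one_lt_right Nat.card_pos hp.out.one_lt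
    have h1 : ⁅a', a⁆ ^ p ^ k = 1 := ih _ hlt a' a rfl hq'
    -- hence `a' * a⁻¹` lies in `Ω_k`
    have h2 : ⁅a', a⁻¹⁆ ^ p ^ k = 1 := by
      have e : ⁅a', a⁻¹⁆ = a⁻¹ * ⁅a', a⁆⁻¹ * a⁻¹⁻¹ := by
        rw [commutatorElement_def, commutatorElement_def]; group
      rw [e, conj_pow, inv_pow, h1, inv_one, mul_one, mul_inv_cancel]
    have h3 : (a' * a⁻¹) ^ p ^ k = 1 := by
      rw [mul_pow_of_commutator_pow hG k h2, inv_pow, hq', mul_inv_cancel]
    have e : ⁅a, b⁆ = (a' * a⁻¹)⁻¹ := by rw [commutatorElement_def, ha']; group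
    rw [e, inv_pow, h3, inv_one]

theorem pow_eq_iff (hG : IsRegularPGroup p G) (k : ℕ) (a b : G) :
    a ^ p ^ k = b ^ p ^ k ↔ (a * b⁻¹) ^ p ^ k = 1 := by
  constructor
  · intro h
    have h1 : ⁅a, b⁻¹⁆ ^ p ^ k = 1 := by
      have e : ⁅a, b⁻¹⁆ = b⁻¹ * ⁅a, b⁆⁻¹ * b⁻¹⁻¹ := by
        rw [commutatorElement_def, commutatorElement_def]; group
      rw [e, conj_pow, inv_pow, commutator_pow_of_pow_eq hG k a b h, inv_one, mul_one, mul_inv_cancel]
    rw [mul_pow_of_commutator_pow hG k h1, inv_pow, h, mul_inv_cancel]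
  · intro h
    have h1 : ⁅a * b⁻¹, b⁆ ^ p ^ k = 1 := by
      haveI := regularOmega_characteristic hG k
      have hx : a * b⁻¹ ∈ regularOmega hG k := h
      have hn : (regularOmega hG k).Normal := inferInstance
      rw [commutatorElement_def]
      have := (regularOmega hG k).mul_mem hx (hn.conj_mem _ ((regularOmega hG k).inv_mem hx) b)
      simpa [mul_assoc] using (show (a * b⁻¹ * (b * (a * b⁻¹)⁻¹ * b⁻¹)) ^ p ^ k = 1 from this)
    have h2 := mul_pow_of_commutator_pow hG k h1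
    rwa [inv_mul_cancel_right, h, one_mul] at h2

theorem pow_commute_iff (hG : IsRegularPGroup p G) (k : ℕ) (a b : G) :
    a ^ p ^ k * b = b * a ^ p ^ k ↔ (a⁻¹ * b⁻¹ * a * b) ^ p ^ k = 1 := by
  have h := pow_eq_iff hG k a⁻¹ (b⁻¹ * a⁻¹ * b⁻¹⁻¹)
  have e : a⁻¹ * (b⁻¹ * a⁻¹ * b⁻¹⁻¹)⁻¹ = a⁻¹ * b⁻¹ * a * b := by group
  rw [e] at h
  rw [← h, conj_pow, inv_pow, inv_inv]
  constructor
  · intro h1
    rw [← inv_inj, mul_inv_rev, mul_inv_rev, inv_inv, inv_inv, h1, inv_mul_cancel_left]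
  · intro h1
    have h2 : a ^ p ^ k = b⁻¹ * (a ^ p ^ k * b) := by
      calc a ^ p ^ k = ((a ^ p ^ k)⁻¹)⁻¹ := (inv_inv _).symm
        _ = (b⁻¹ * (a ^ p ^ k)⁻¹ * b)⁻¹ := by rw [← h1]
        _ = b⁻¹ * (a ^ p ^ k * b) := by group
    conv_rhs => rw [h2]
    group

end CfsgLib.RegularP
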