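/-
p-groups (p > 3) with at most p^2 elements of order dividing p: quotients, and Huppert's metacyclicity.
-/
import Mathlib
import Cfsg.Prelude.Def_PLocal
import Cfsg.Prelude.Def_OddOrderLocal
import Cfsg.Agent.Lib.PGroups.Omega
import Cfsg.Agent.Lib.PGroups.Series
import Cfsg.Agent.Lib.PGroups.Frattini
import Cfsg.Agent.Lib.PSolvable.Basic

set_option autoImplicit false

open scoped commutatorElement

universe u

namespace CfsgLib.RegularP

open Cfsg CfsgLib.PGroups

/-- A subgroup all of whose elements are killed by `p` lies in `Ω₁`. -/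
theorem le_omegaOne_top {G : Type*} [Group G] {p : ℕ} {E : Subgroup G} (h : ∀ x ∈ E, x ^ p = 1) :
    E ≤ omegaOne p (⊤ : Subgroup G) := fun x hx =>
  Subgroup.subset_closure ⟨Subgroup.mem_top x, h x hx⟩

theorem card_omega_quotient_central {R : Type u} [Group R] [Finite R] {p : ℕ} [hp : Fact p.Prime]
    (hp3 : 3 < p) (hR : IsPGroup p R) (hO : Nat.card (omegaOne p (⊤ : Subgroup R)) ≤ p ^ 2)
    (Z : Subgroup R) [Z.Normal] (hZ : Nat.card Z = p) :
    Nat.card (omegaOne p (⊤ : Subgroup (R ⧸ Z))) ≤ p ^ 2 := by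
  have hp2 : p ≠ 2 := by omega
  have hQ : IsPGroup p (R ⧸ Z) := hR.to_quotient Z
  by_cases hc : IsCyclic (R ⧸ Z)
  · classical
    let W : Subgroup (R ⧸ Z) :=
      { carrier := {x | x ^ p = 1}
        one_mem' := one_pow p
        mul_mem' := fun {a b} ha hb => by
          obtain ⟨g, hg⟩ := hc.exists_generator
          obtain ⟨i, hi⟩ := Subgroup.mem_zpowers_iff.1 (hg a)
          obtain ⟨j, hj⟩ := Subgroup.mem_zpowers_iff.1 (hg b)
          have hcm : Commute a b := by
            rw [← hi, ← hj]; exact (Commute.refl g).zpow_zpow i j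
          show (a * b) ^ p = 1
          rw [hcm.mul_pow, (ha : a ^ p = 1), (hb : b ^ p = 1), one_mul]
        inv_mem' := fun {a} ha => by
          show a⁻¹ ^ p = 1
          rw [inv_pow, (ha : a ^ p = 1), inv_one] }
    have hle : omegaOne p (⊤ : Subgroup (R ⧸ Z)) ≤ W := by
      rw [omegaOne, Subgroup.closure_le]
      exact fun x hx => hx.2
    have := Fintype.ofFinite (R ⧸ Z)
    refine (Subgroup.card_le_of_le hle).trans (le_trans ?_ (Nat.le_self_pow two_ne_zero p))
    rw [Nat.card_eq_fintype_card, Fintype.card_subtype]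
    refine le_trans (Finset.card_le_card fun x hx => ?_) (IsCyclic.card_pow_eq_one_le hp.out.pos)
    rw [Finset.mem_filter] at hx ⊢
    exact hx
  obtain ⟨E, hEn, hEe, hEc⟩ := exists_normal_elemAb_sq hp2 hQ hc
  suffices hall : ∀ x : R ⧸ Z, x ^ p = 1 → x ∈ E by
    rw [← hEc]
    refine Subgroup.card_le_of_le ?_
    rw [omegaOne, Subgroup.closure_le]
    exact fun x hx => hall x hx.2
  intro x hx
  by_contra hxE
  set π := QuotientGroup.mk' Z with hπ
  set K := E ⊔ Subgroup.zpowers x with hK
  have hKgen : K ≤ Subgroup.closure {y | y ∈ K ∧ y ^ p = 1} := by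
    refine sup_le (fun e he => Subgroup.subset_closure ⟨Subgroup.mem_sup_left he, hEe.2 e he⟩)
      (Subgroup.zpowers_le.2 (Subgroup.subset_closure ⟨Subgroup.mem_sup_right (Subgroup.mem_zpowers x), hx⟩))
  have hEK : E ≤ K := le_sup_left
  have hrel : E.relIndex K ≤ p := by
    rw [hK, sup_comm, Subgroup.relIndex_sup_right]
    refine le_trans (Nat.le_of_dvd Nat.card_pos (Subgroup.relIndex_dvd_card E _)) ?_
    rw [Nat.card_zpowers]
    exact Nat.le_of_dvd hp.out.pos (orderOf_dvd_of_pow_eq_one hx)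
  have hK3 : Nat.card K ≤ p ^ 3 := by
    have h1 := Subgroup.relIndex_mul_relIndex ⊥ E K bot_le hEK
    rw [Subgroup.relIndex_bot_left, Subgroup.relIndex_bot_left, hEc] at h1
    rw [← h1, pow_succ p 2]
    exact Nat.mul_le_mul_left _ hrel
  have hKlow : p ^ 3 ≤ Nat.card K := by
    have h1 := prime_mul_card_le hQ (lt_of_le_of_ne hEK fun he =>
      hxE (he.symm ▸ Subgroup.mem_sup_right (Subgroup.mem_zpowers x)))
    rwa [hEc, ← pow_succ'] at h1
  have hKcl : ⁅commutator K, (⊤ : Subgroup K)⁆ = ⊥ := by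
    rw [← Subgroup.top_lowerCentralSeries_one, ← Subgroup.lowerCentralSeries_succ]
    exact lowerCentralSeries_eq_bot_of_card_le (hQ.to_subgroup K) (by norm_num) hK3
  have hKexp : ∀ g ∈ K, g ^ p = 1 := by
    intro g hg
    have hg' : (⟨g, hg⟩ : K) ∈ Subgroup.closure {y : K | y ^ p = 1} := by
      have h1 := hKgen hg
      have h2 : Subgroup.closure {y | y ∈ K ∧ y ^ p = 1} ≤
          (Subgroup.closure {y : K | y ^ p = 1}).map K.subtype := by
        rw [Subgroup.closure_le]
        rintro y ⟨hy, hyp⟩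
        exact ⟨⟨y, hy⟩, Subgroup.subset_closure (Subtype.ext (by simpa using hyp)), rfl⟩
      obtain ⟨w, hw, hwg⟩ := h2 h1
      exact (show w = ⟨g, hg⟩ from Subtype.ext hwg) ▸ hw
    have := congrArg Subtype.val (pow_eq_one_of_mem_omega (Or.inl ⟨hp2, hKcl⟩) hg')
    simpa using this
  -- the preimage `H`
  set H := K.comap π with hH
  have hZH : Z ≤ H := fun z hz => by
    show π z ∈ K
    rw [hπ, QuotientGroup.mk'_apply, (QuotientGroup.eq_one_iff z).2 hz]
    exact one_mem K
  have hHrel : Z.relIndex H = Nat.card K := by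
    rw [CfsgLib.PSolvable.relIndex_eq_card_map, hH, ← hπ,
      Subgroup.map_comap_eq_self_of_surjective (QuotientGroup.mk'_surjective Z)]
  have hHcard : Nat.card H = p * Nat.card K := by
    have h1 := Subgroup.relIndex_mul_relIndex ⊥ Z H bot_le hZH
    rw [Subgroup.relIndex_bot_left, Subgroup.relIndex_bot_left, hZ, hHrel] at h1
    exact h1.symm
  have hHp : IsPGroup p H := hR.to_subgroup H
  have hH4 : Nat.card H ≤ p ^ 4 := by
    rw [hHcard, pow_succ' p 3]
    exact Nat.mul_le_mul_left _ hK3
  have hHcl : ⁅⁅commutator H, (⊤ : Subgroup H)⁆, (⊤ : Subgroup H)⁆ = ⊥ := by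
    rw [← Subgroup.top_lowerCentralSeries_one, ← Subgroup.lowerCentralSeries_succ,
      ← Subgroup.lowerCentralSeries_succ]
    exact lowerCentralSeries_eq_bot_of_card_le hHp (by norm_num) hH4
  have hZc : ∀ z ∈ Z, ∀ g : R, g * z = z * g := fun z hz g =>
    Subgroup.mem_center_iff.1 (le_center_of_card_eq_prime hR hZ hz) g
  have hZp : ∀ z ∈ Z, z ^ p = 1 := fun z hz =>
    orderOf_dvd_iff_pow_eq_one.1 (hZ ▸ Subgroup.orderOf_dvd_natCard Z hz)
  have hpowZ : ∀ h : H, (h : R) ^ p ∈ Z := fun h => by
    rw [← QuotientGroup.eq_one_iff (N := Z), ← QuotientGroup.mk'_apply, map_pow]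
    exact hKexp _ h.2
  -- commutators in `H` are killed by `p`
  have hcomZ : ∀ (c : H), c ∈ commutator H → ∀ g : H, ((c⁻¹ * g⁻¹ * c * g : H) : R) ∈ Z := by
    intro c hc g
    let f : H →* K := (π.subgroupComap K)
    have hfc : f c ∈ commutator K := Subgroup.commutator_mono le_top le_top
      ((Subgroup.map_commutator ⊤ ⊤ f) ▸ Subgroup.mem_map_of_mem f hc)
    have hfz := Subgroup.mem_center_iff.1 (Subgroup.commutator_top_right_eq_bot_iff_le_center.1 hKcl hfc) (f g)
    rw [← QuotientGroup.eq_one_iff (N := Z), ← QuotientGroup.mk'_apply]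
    have h1 : f (c⁻¹ * g⁻¹ * c * g) = 1 := by
      rw [map_mul, map_mul, map_mul, map_inv, map_inv, mul_assoc _ (f c) (f g), ← hfz]
      group
    exact congrArg Subtype.val h1
  have hgenexp : ∀ a b : H, ⁅a, b⁆ ^ p = 1 := by
    intro a b
    set c := ⁅a, b⁆ with hc
    set v := c⁻¹ * (a⁻¹)⁻¹ * c * a⁻¹ with hv
    have hcG : c ∈ commutator H := Subgroup.commutator_mem_commutator (Subgroup.mem_top _) (Subgroup.mem_top _)
    have hvZ : (v : R) ∈ Z := hcomZ c hcG a⁻¹
    have hvc : v ∈ Subgroup.center H := Subgroup.mem_center_iff.2 fun g => Subtype.ext (hZc _ hvZ g)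
    have h1 : a⁻¹ * b⁻¹ = b⁻¹ * a⁻¹ * c := by
      rw [hc, commutatorElement_def]; group
    have h3 : c * a⁻¹ = a⁻¹ * c * v := by rw [hv]; group
    have h := pow_mul_swap h1 h3 hvc p
    have hcen : (a⁻¹ ^ p) * b⁻¹ = b⁻¹ * a⁻¹ ^ p :=
      Subtype.ext (hZc _ (by simpa using hpowZ a⁻¹) _).symm
    obtain ⟨k, hk⟩ := hp.out.dvd_choose_self (show 2 ≠ 0 by norm_num) (show 2 < p by omega)
    rw [hcen, hk, pow_mul, show v ^ p = 1 from Subtype.ext (by simpa using hZp _ hvZ), one_pow,
      mul_one] at h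
    exact mul_eq_left.1 h.symm
  have hK' : Nat.card (commutator K) ≤ p := by
    by_cases hKc : IsCyclic K
    · exfalso
      obtain ⟨g, hg⟩ := hKc.exists_generator
      have h1 : orderOf g ≤ p := Nat.le_of_dvd hp.out.pos
        (orderOf_dvd_of_pow_eq_one (Subtype.ext (by simpa using hKexp g g.2)))
      rw [orderOf_eq_card_of_forall_mem_zpowers hg] at h1
      have h2 : p ^ 3 ≤ p := hKlow.trans h1
      have := lt_self_pow₀ hp.out.one_lt (show 1 < 3 by omega)
      omega
    · have h1 := (pow_two_mul_card_commutator_le (hQ.to_subgroup K) hKc).trans hK3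
      rw [pow_succ p 2] at h1
      exact Nat.le_of_mul_le_mul_left h1 (pow_pos hp.out.pos 2)
  have hderiv : Nat.card (commutator H) ≤ p ^ 2 := by
    have hle : (commutator H).map H.subtype ≤ ((commutator K).map K.subtype).comap π := by
      rw [← Subgroup.map_le_iff_le_comap, Subgroup.map_map,
        show π.comp H.subtype = K.subtype.comp (π.subgroupComap K) from rfl, ← Subgroup.map_map]
      refine Subgroup.map_mono ?_
      rw [commutator_def, commutator_def, Subgroup.map_commutator]
      exact Subgroup.commutator_mono le_top le_top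
    have h1 := Subgroup.card_le_of_le hle
    rw [Subgroup.card_subtype] at h1
    refine h1.trans ?_
    set W := ((commutator K).map K.subtype).comap π with hW
    have hZW : Z ≤ W := fun z hz => by
      rw [hW, Subgroup.mem_comap, hπ, QuotientGroup.mk'_apply, (QuotientGroup.eq_one_iff z).2 hz]
      exact one_mem _
    have h2 := Subgroup.relIndex_mul_relIndex ⊥ Z W bot_le hZW
    have h3 : Z.relIndex W = Nat.card (commutator K) := by
      rw [CfsgLib.PSolvable.relIndex_eq_card_map, hW, ← hπ,
        Subgroup.map_comap_eq_self_of_surjective (QuotientGroup.mk'_surjective Z), Subgroup.card_subtype]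
    rw [Subgroup.relIndex_bot_left, Subgroup.relIndex_bot_left, hZ, h3] at h2
    rw [← h2, pow_two]
    exact Nat.mul_le_mul_left _ hK'
  have hexp : ∀ g ∈ commutator H, g ^ p = 1 := by
    obtain ⟨j, hj⟩ := IsPGroup.iff_card.1 (hHp.to_subgroup (commutator H))
    have hj2 : j ≤ 2 := (Nat.pow_le_pow_iff_right hp.out.one_lt).1 (hj ▸ hderiv)
    have hab : ∀ u ∈ commutator H, ∀ v ∈ commutator H, Commute u v := by
      intro u hu v hv
      by_cases hj2' : j = 2
      · haveI := IsPGroup.isMulCommutative_of_card_eq_prime_sq (hj2' ▸ hj)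
        exact congrArg Subtype.val (mul_comm' (⟨u, hu⟩ : commutator H) ⟨v, hv⟩)
      · haveI : IsCyclic (commutator H) := by
          rcases (show j = 0 ∨ j = 1 by omega) with rfl | rfl
          · rw [pow_zero] at hj
            haveI := (Nat.card_eq_one_iff_unique.1 hj).1
            infer_instance
          · exact isCyclic_of_prime_card (p := p) (by rw [hj, pow_one])
        obtain ⟨g, hg⟩ := IsCyclic.exists_generator (α := commutator H)
        obtain ⟨i, hi⟩ := Subgroup.mem_zpowers_iff.1 (hg ⟨u, hu⟩)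
        obtain ⟨k, hk⟩ := Subgroup.mem_zpowers_iff.1 (hg ⟨v, hv⟩)
        have hc := congrArg Subtype.val ((Commute.refl g).zpow_zpow i k).eq
        rw [hi, hk] at hc
        exact hc
    intro g hg
    have hgen : g ∈ Subgroup.closure {w | ∃ a b : H, ⁅a, b⁆ = w} := by
      have h1 : commutator H = Subgroup.closure {w | ∃ a b : H, ⁅a, b⁆ = w} := by
        rw [commutator_eq_closure]; rfl
      exact h1 ▸ hg
    clear hg
    have key : g ∈ commutator H ∧ g ^ p = 1 := by
      induction hgen using Subgroup.closure_induction with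
      | mem w hw =>
        obtain ⟨a, b, rfl⟩ := hw
        exact ⟨Subgroup.commutator_mem_commutator (Subgroup.mem_top _) (Subgroup.mem_top _), hgenexp a b⟩
      | one => exact ⟨one_mem _, one_pow p⟩
      | mul a b _ _ ha hb =>
        exact ⟨mul_mem ha.1 hb.1, by rw [(hab a ha.1 b hb.1).mul_pow, ha.2, hb.2, one_mul]⟩
      | inv a _ ha => exact ⟨inv_mem ha.1, by rw [inv_pow, ha.2, inv_one]⟩
    exact key.2
  let f : H →* R :=
    { toFun := fun h => (h : R) ^ p
      map_one' := by simp
      map_mul' := fun a b => by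
        have := congrArg Subtype.val (mul_pow_of_small_class (Or.inr ⟨hp3, hHcl⟩) hexp a b)
        simpa using this }
  have hker : Nat.card f.ker ≤ p ^ 2 := by
    rw [← Subgroup.card_subtype H f.ker]
    refine (Subgroup.card_le_of_le (le_omegaOne_top ?_)).trans hO
    rintro _ ⟨h, hh, rfl⟩
    exact hh
  have hrange : Nat.card f.range ≤ p := by
    rw [← hZ]
    exact Subgroup.card_le_of_le (by rintro _ ⟨h, rfl⟩; exact hpowZ h)
  have h1 := f.ker.index_mul_card
  rw [Subgroup.index_ker, hHcard] at h1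
  have h2 : p * p ^ 3 ≤ p * p ^ 2 :=
    (Nat.mul_le_mul_left p hKlow).trans (h1 ▸ Nat.mul_le_mul hrange hker)
  have h3 := Nat.le_of_mul_le_mul_left h2 hp.out.pos
  exact absurd ((Nat.pow_le_pow_iff_right hp.out.one_lt).1 h3) (by norm_num)

/-- **The bound `|Ω₁| ≤ p²` passes to quotients** (`p > 3`). -/
theorem card_omega_quotient {R : Type u} [Group R] [Finite R] {p : ℕ} [hp : Fact p.Prime]
    (hp3 : 3 < p) (hR : IsPGroup p R) (hO : Nat.card (omegaOne p (⊤ : Subgroup R)) ≤ p ^ 2)
    (T : Subgroup R) [T.Normal] : Nat.card (omegaOne p (⊤ : Subgroup (R ⧸ T))) ≤ p ^ 2 := by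
  induction hn : Nat.card R using Nat.strong_induction_on generalizing R with
  | _ n ih =>
    subst hn
    by_cases hT : T = ⊥
    · subst hT
      let e : R ⧸ (⊥ : Subgroup R) ≃* R := QuotientGroup.quotientBot
      refine le_trans ?_ hO
      rw [← Subgroup.card_map_of_injective e.injective (f := e.toMonoidHom)]
      refine Subgroup.card_le_of_le ?_
      rw [omegaOne, MonoidHom.map_closure, Subgroup.closure_le]
      rintro _ ⟨x, ⟨-, hx⟩, rfl⟩
      exact Subgroup.subset_closure ⟨Subgroup.mem_top _, by rw [← map_pow, hx, map_one]⟩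
    obtain ⟨k, hk⟩ := IsPGroup.iff_card.1 (hR.to_subgroup T)
    have hk1 : 1 ≤ k := by
      by_contra h0
      rw [show k = 0 by omega, pow_zero] at hk
      exact hT (Subgroup.eq_bot_of_card_eq T hk)
    obtain ⟨Z, hZn, hZT, hZc⟩ := exists_normal_card_le hR (N := T) (k := 1) hk hk1
    rw [pow_one] at hZc
    haveI := hZn
    haveI : (T.map (QuotientGroup.mk' Z)).Normal :=
      Subgroup.Normal.map inferInstance _ (QuotientGroup.mk'_surjective Z)
    have hlt : Nat.card (R ⧸ Z) < Nat.card R := by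
      rw [← Z.index_mul_card, hZc, ← Subgroup.index_eq_card]
      exact lt_mul_of_one_lt_right (Nat.pos_of_ne_zero Subgroup.index_ne_zero_of_finite) hp.out.one_lt
    have h := ih _ hlt (hR.to_quotient Z) (card_omega_quotient_central hp3 hR hO Z hZc)
      (T.map (QuotientGroup.mk' Z)) rfl
    let e := QuotientGroup.quotientQuotientEquivQuotient Z T hZT
    refine le_trans ?_ h
    rw [← Subgroup.card_map_of_injective e.symm.injective (f := e.symm.toMonoidHom)]
    refine Subgroup.card_le_of_le ?_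
    rw [omegaOne, MonoidHom.map_closure, Subgroup.closure_le]
    rintro _ ⟨x, ⟨-, hx⟩, rfl⟩
    exact Subgroup.subset_closure ⟨Subgroup.mem_top _, by rw [← map_pow, hx, map_one]⟩

theorem card_quotient_le_of_exponent {R : Type u} [Group R] [Finite R] {p : ℕ} [Fact p.Prime]
    (hp3 : 3 < p) (hR : IsPGroup p R) (hO : Nat.card (omegaOne p (⊤ : Subgroup R)) ≤ p ^ 2)
    (T : Subgroup R) [T.Normal] (hT : ∀ x : R, x ^ p ∈ T) : Nat.card (R ⧸ T) ≤ p ^ 2 := by
  rw [← Subgroup.card_top (G := R ⧸ T)]
  refine (Subgroup.card_le_of_le (le_omegaOne_top fun q _ => ?_)).trans (card_omega_quotient hp3 hR hO T)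
  obtain ⟨x, rfl⟩ := QuotientGroup.mk'_surjective T q
  rw [← map_pow, QuotientGroup.mk'_apply, (QuotientGroup.eq_one_iff _).2 (hT x)]

/-- A normal cyclic subgroup generated outside `Φ` gives a metacyclic structure. -/
theorem isMetacyclic_of_zpowers {R : Type u} [Group R] [Finite R] {p : ℕ} [hp : Fact p.Prime]
    (hR : IsPGroup p R) (hΦ : (frattini R).index ≤ p ^ 2) {x : R} (hx : x ∉ frattini R)
    (hn : (Subgroup.zpowers x).Normal) : IsMetacyclic R := by
  haveI := hn
  refine ⟨Subgroup.zpowers x, hn, inferInstance, ?_⟩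
  set M := frattini R ⊔ Subgroup.zpowers x with hM
  have hlt : frattini R < M := lt_of_le_of_ne le_sup_left fun h =>
    hx (h.symm ▸ Subgroup.mem_sup_right (Subgroup.mem_zpowers x))
  have hMi : M.index ≤ p := by
    have h1 := prime_mul_card_le hR hlt
    have h2 := M.index_mul_card
    rw [← (frattini R).index_mul_card] at h2
    refine Nat.le_of_mul_le_mul_right ?_ (Nat.mul_pos hp.out.pos (Nat.card_pos (α := frattini R)))
    calc M.index * (p * Nat.card (frattini R)) ≤ M.index * Nat.card M := Nat.mul_le_mul_left _ h1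
      _ = (frattini R).index * Nat.card (frattini R) := h2
      _ ≤ p ^ 2 * Nat.card (frattini R) := Nat.mul_le_mul_right _ hΦ
      _ = p * (p * Nat.card (frattini R)) := by ring
  obtain ⟨y, hy⟩ : ∃ y, M ⊔ Subgroup.zpowers y = ⊤ := by
    by_cases h : M = ⊤
    · exact ⟨1, by rw [h, top_sup_eq]⟩
    obtain ⟨y, hy⟩ : ∃ y, y ∉ M := by
      by_contra! hall
      exact h ((Subgroup.eq_top_iff' M).2 hall)
    refine ⟨y, ?_⟩
    set S := M ⊔ Subgroup.zpowers y with hS
    have h1 := prime_mul_card_le hR (lt_of_le_of_ne (le_sup_left : M ≤ S) fun h =>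
      hy (h.symm ▸ Subgroup.mem_sup_right (Subgroup.mem_zpowers y)))
    have h2 := M.index_mul_card
    exact Subgroup.eq_top_of_le_card _ (by
      rw [← h2]; exact (Nat.mul_le_mul_right _ hMi).trans h1)
  have htop : Subgroup.zpowers x ⊔ Subgroup.zpowers y = ⊤ := frattini_nongenerating (by
    rw [← hy, hM, sup_comm (frattini R), sup_assoc, sup_assoc, sup_comm (frattini R)])
  refine ⟨⟨QuotientGroup.mk' _ y, fun q => ?_⟩⟩
  obtain ⟨g, rfl⟩ := QuotientGroup.mk'_surjective (Subgroup.zpowers x) q
  obtain ⟨u, hu, v, hv, rfl⟩ := Subgroup.mem_sup_of_normal_left.1 (htop.symm ▸ Subgroup.mem_top g)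
  rw [map_mul, show QuotientGroup.mk' (Subgroup.zpowers x) u = 1 from (QuotientGroup.eq_one_iff u).2 hu,
    one_mul]
  obtain ⟨i, rfl⟩ := Subgroup.mem_zpowers_iff.1 hv
  exact ⟨i, (map_zpow (QuotientGroup.mk' (Subgroup.zpowers x)) y i).symm⟩

/-- **Huppert's criterion.** -/
theorem isMetacyclic_of_card_omega {R : Type u} [Group R] [Finite R] {p : ℕ} [hp : Fact p.Prime]
    (hp3 : 3 < p) (hR : IsPGroup p R) (hO : Nat.card (omegaOne p (⊤ : Subgroup R)) ≤ p ^ 2) :
    IsMetacyclic R := by
  induction hn : Nat.card R using Nat.strong_induction_on generalizing R with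
  | _ n ih =>
    subst hn
    rcases subsingleton_or_nontrivial R with hs | hnt
    · exact ⟨⊤, inferInstance, inferInstance, inferInstance⟩
    have hΦ : (frattini R).index ≤ p ^ 2 := by
      rw [Subgroup.index_eq_card]
      exact card_quotient_le_of_exponent hp3 hR hO _ (pow_mem_frattini hR)
    have hΦne : frattini R ≠ ⊤ := fun h => bot_ne_top (frattini_nongenerating
      (K := (⊥ : Subgroup R)) (by rw [h, sup_top_eq]))
    by_cases hab : commutator R = ⊥
    · obtain ⟨x, hx⟩ : ∃ x, x ∉ frattini R := by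
        by_contra! hall
        exact hΦne ((Subgroup.eq_top_iff' _).2 hall)
      refine isMetacyclic_of_zpowers hR hΦ hx ⟨fun g hg r => ?_⟩
      have h1 : ⁅r, g⁆ ∈ commutator R :=
        Subgroup.commutator_mem_commutator (Subgroup.mem_top _) (Subgroup.mem_top _)
      rw [hab, Subgroup.mem_bot, commutatorElement_eq_one_iff_mul_comm] at h1
      rw [h1, mul_inv_cancel_right]
      exact hg
    obtain ⟨k, hk⟩ := IsPGroup.iff_card.1 (hR.to_subgroup (commutator R))
    have hk1 : 1 ≤ k := by
      by_contra h0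
      rw [show k = 0 by omega, pow_zero] at hk
      exact hab (Subgroup.eq_bot_of_card_eq _ hk)
    obtain ⟨Z, hZn, hZR, hZc⟩ := exists_normal_card_le hR (N := commutator R) (k := 1) hk hk1
    rw [pow_one] at hZc
    haveI := hZn
    have hZcen := le_center_of_card_eq_prime hR hZc
    have hlt : Nat.card (R ⧸ Z) < Nat.card R := by
      rw [← Z.index_mul_card, hZc, ← Subgroup.index_eq_card]
      exact lt_mul_of_one_lt_right (Nat.pos_of_ne_zero Subgroup.index_ne_zero_of_finite) hp.out.one_lt
    obtain ⟨N', hN'n, hN'c, hQc⟩ :=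
      ih _ hlt (hR.to_quotient Z) (card_omega_quotient hp3 hR hO Z) rfl
    haveI := hN'n
    set π := QuotientGroup.mk' Z with hπ
    set N := N'.comap π with hN
    have hQc' : IsCyclic (R ⧸ N) := by
      let q := (QuotientGroup.mk' N').comp π
      have hq : q.ker = N := by rw [hN, ← MonoidHom.comap_ker, QuotientGroup.ker_mk']
      exact ((QuotientGroup.quotientMulEquivOfEq hq.symm).trans
        (QuotientGroup.quotientKerEquivOfSurjective q
          ((QuotientGroup.mk'_surjective N').comp (QuotientGroup.mk'_surjective Z)))).isCyclic.2 hQc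
    by_cases hNc : IsCyclic N
    · exact ⟨N, inferInstance, hNc, hQc'⟩
    obtain ⟨⟨nb, hnb⟩, hgen⟩ := hN'c.exists_generator
    obtain ⟨n, rfl⟩ := QuotientGroup.mk'_surjective Z nb
    obtain ⟨rb, hrgen⟩ := hQc'.exists_generator
    obtain ⟨r, rfl⟩ := QuotientGroup.mk'_surjective N rb
    have hnN : n ∈ N := hnb
    have hNmem : ∀ g ∈ N, ∃ (i : ℤ), (n ^ i)⁻¹ * g ∈ Z := by
      intro g hg
      obtain ⟨i, hi⟩ := Subgroup.mem_zpowers_iff.1 (hgen ⟨π g, hg⟩)
      refine ⟨i, QuotientGroup.eq.1 ?_⟩
      have h1 := congrArg Subtype.val hi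
      simp only [SubgroupClass.coe_zpow] at h1
      rw [← map_zpow] at h1
      exact h1
    set c := r * n * r⁻¹ * n⁻¹ with hc
    have hcN : c ∈ N := N.mul_mem ((inferInstance : N.Normal).conj_mem n hnN r) (N.inv_mem hnN)
    have hcR : c ∈ commutator R :=
      Subgroup.commutator_mem_commutator (Subgroup.mem_top r) (Subgroup.mem_top n)
    obtain ⟨k, hk⟩ := hNmem c hcN
    set z0 := (n ^ k)⁻¹ * c with hz0
    have hck : c = n ^ k * z0 := by rw [hz0, mul_inv_cancel_left]
    have hzc : ∀ z ∈ Z, ∀ g : R, g * z = z * g := fun z hz g =>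
      Subgroup.mem_center_iff.1 (hZcen hz) g
    set K := Subgroup.zpowers c with hK
    have hdec : ∀ g : R, ∃ (i j : ℤ) (z : R), z ∈ Z ∧ g = r ^ i * n ^ j * z := by
      intro g
      obtain ⟨i, hi⟩ := Subgroup.mem_zpowers_iff.1 (hrgen (QuotientGroup.mk' N g))
      rw [← map_zpow] at hi
      obtain ⟨j, hj⟩ := hNmem _ (QuotientGroup.eq.1 hi)
      refine ⟨i, j, _, hj, ?_⟩
      group
    have hncomm : Commute n c := by
      rw [hck]
      exact ((Commute.refl n).zpow_right k).mul_right (hzc z0 hk n)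
    have hnc : n * c * n⁻¹ = c := by rw [hncomm.eq, mul_inv_cancel_right]
    have hrc : r * c * r⁻¹ ∈ K := by
      have h1 : r * c * r⁻¹ = c ^ k * c := by
        have hcomm : Commute c n := hncomm.symm
        calc r * c * r⁻¹ = r * n ^ k * r⁻¹ * (r * z0 * r⁻¹) := by rw [hck]; group
          _ = (c * n) ^ k * z0 := by
            rw [← conj_zpow, hzc z0 hk r, mul_inv_cancel_right, show c * n = r * n * r⁻¹ by rw [hc]; group]
          _ = c ^ k * c := by rw [hcomm.mul_zpow, mul_assoc, ← hck]
      rw [h1]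
      exact mul_mem (Subgroup.zpow_mem_zpowers c k) (Subgroup.mem_zpowers c)
    have hnorm : ∀ g : R, g * c * g⁻¹ ∈ K → g ∈ Subgroup.normalizer (K : Set R) := by
      intro g hg
      refine Subgroup.mem_normalizer_fintype fun x hx => ?_
      obtain ⟨i, rfl⟩ := Subgroup.mem_zpowers_iff.1 hx
      rw [SetLike.mem_coe, ← conj_zpow]
      exact zpow_mem hg i
    haveI hKn : K.Normal := by
      rw [← Subgroup.normalizer_eq_top_iff, eq_top_iff]
      intro g _
      obtain ⟨i, j, z, hz, rfl⟩ := hdec g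
      refine mul_mem (mul_mem (zpow_mem (hnorm r hrc) i)
        (zpow_mem (hnorm n (hnc.symm ▸ Subgroup.mem_zpowers c)) j)) (hnorm z ?_)
      rw [← hzc z hz c, mul_inv_cancel_right]
      exact Subgroup.mem_zpowers c
    have hRK : commutator R ≤ K := by
      have hrn : Commute (QuotientGroup.mk' K r) (QuotientGroup.mk' K n) := by
        rw [← commutatorElement_eq_one_iff_commute, ← map_commutatorElement, QuotientGroup.mk'_apply,
          QuotientGroup.eq_one_iff]
        exact Subgroup.mem_zpowers c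
      have hcomm : ∀ a b : R, Commute (QuotientGroup.mk' K a) (QuotientGroup.mk' K b) := by
        intro a b
        obtain ⟨i, j, z, hz, rfl⟩ := hdec a
        obtain ⟨i', j', z', hz', rfl⟩ := hdec b
        have hcz : ∀ (w : R), w ∈ Z → ∀ q, Commute (QuotientGroup.mk' K w) q := fun w hw q => by
          obtain ⟨g, rfl⟩ := QuotientGroup.mk'_surjective K q
          show _ * _ = _ * _
          rw [← map_mul, ← map_mul, hzc w hw g]
        simp only [map_mul, map_zpow]
        refine Commute.mul_left (Commute.mul_right ?_ (hcz z' hz' _).symm) (hcz z hz _)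
        exact ((((Commute.refl _).zpow_zpow i i').mul_right (hrn.zpow_zpow i j')).mul_left
          ((hrn.symm.zpow_zpow j i').mul_right ((Commute.refl _).zpow_zpow j j')))
      rw [commutator_def, Subgroup.commutator_le]
      intro a _ b _
      rw [← QuotientGroup.eq_one_iff, ← QuotientGroup.mk'_apply, map_commutatorElement,
        commutatorElement_eq_one_iff_commute]
      exact hcomm a b
    obtain ⟨z1, hz1, hz1ne⟩ : ∃ z ∈ Z, z ≠ 1 := by
      by_contra! h
      rw [(Subgroup.eq_bot_iff_forall Z).2 h, Subgroup.card_bot] at hZc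
      exact hp.out.ne_one hZc.symm
    obtain ⟨j, hj⟩ := Subgroup.mem_zpowers_iff.1 (hRK (hZR hz1))
    have hZgen : ∀ z ∈ Z, z ≠ 1 → Z ≤ Subgroup.zpowers z := fun z hz hz' =>
      (Subgroup.eq_of_le_of_card_ge (Subgroup.zpowers_le.2 hz) (by
        rw [hZc, Nat.card_zpowers, orderOf_eq_prime
          (orderOf_dvd_iff_pow_eq_one.1 (hZc ▸ Subgroup.orderOf_dvd_natCard Z hz)) hz'])).ge
    have hinter : ∀ i : ℤ, n ^ i ∈ Z → n ^ i = 1 := by
      intro i hi
      by_contra hne
      apply hNc
      have hle : N ≤ Subgroup.zpowers n := fun g hg => by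
        obtain ⟨l, hl⟩ := hNmem g hg
        have h1 : Z ≤ Subgroup.zpowers n :=
          (hZgen _ hi hne).trans (Subgroup.zpowers_le.2 (Subgroup.zpow_mem_zpowers n i))
        have := mul_mem (Subgroup.zpow_mem_zpowers n l) (h1 hl)
        rwa [mul_inv_cancel_left] at this
      exact isCyclic_of_injective (Subgroup.inclusion hle) (Subgroup.inclusion_injective hle)
    have hjz : n ^ (k * j) * z0 ^ j = z1 := by
      rw [← hj, hck, (show Commute (n ^ k) z0 from hzc z0 hk _).mul_zpow, zpow_mul]
    have hkj : n ^ (k * j) = 1 := by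
      refine hinter _ ?_
      rw [show n ^ (k * j) = z1 * (z0 ^ j)⁻¹ by rw [← hjz, mul_inv_cancel_right]]
      exact mul_mem hz1 (inv_mem (zpow_mem hk j))
    rw [hkj, one_mul] at hjz
    have hpj : ¬ (p : ℤ) ∣ j := by
      rintro ⟨q, rfl⟩
      rw [zpow_mul, zpow_natCast,
        orderOf_dvd_iff_pow_eq_one.1 (hZc ▸ Subgroup.orderOf_dvd_natCard Z hk), one_zpow] at hjz
      exact hz1ne hjz.symm
    have hcZ : c ∈ Z := by
      obtain ⟨e, he⟩ := IsPGroup.iff_orderOf.1 hR n
      have h1 : ((p : ℤ) ^ e) ∣ k * j := by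
        have := orderOf_dvd_iff_zpow_eq_one.2 hkj
        rw [he] at this
        exact_mod_cast this
      have hco : IsCoprime ((p : ℤ) ^ e) j :=
        (((Nat.prime_iff_prime_int.1 hp.out).coprime_iff_not_dvd).2 hpj).pow_left
      have h2 : n ^ k = 1 := by
        rw [← orderOf_dvd_iff_zpow_eq_one, he]
        exact_mod_cast hco.dvd_of_dvd_mul_right h1
      rw [hck, h2, one_mul]
      exact hk
    have hRZ : commutator R ≤ Z := hRK.trans (Subgroup.zpowers_le.2 hcZ)
    have hexp : ∀ g ∈ commutator R, g ^ p = 1 := fun g hg =>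
      orderOf_dvd_iff_pow_eq_one.1 (hZc ▸ Subgroup.orderOf_dvd_natCard Z (hRZ hg))
    have hcl : ⁅commutator R, (⊤ : Subgroup R)⁆ = ⊥ :=
      Subgroup.commutator_top_right_eq_bot_iff_le_center.2 (hRZ.trans hZcen)
    have hmul := mul_pow_of_small_class (p := p) (Or.inl ⟨by omega, hcl⟩) hexp
    let f : R →* R :=
      { toFun := fun x => x ^ p
        map_one' := one_pow p
        map_mul' := hmul }
    haveI hPn : f.range.Normal := ⟨by
      rintro _ ⟨x, rfl⟩ g
      exact ⟨g * x * g⁻¹, conj_pow⟩⟩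
    have hquot := card_quotient_le_of_exponent hp3 hR hO f.range fun x => ⟨x, rfl⟩
    have hRP : commutator R ≤ f.range := by
      have hqc : ∀ a b : R ⧸ f.range, Commute a b := by
        obtain ⟨j, hj⟩ := IsPGroup.iff_card.1 (hR.to_quotient f.range)
        have hj2 : j ≤ 2 := (Nat.pow_le_pow_iff_right hp.out.one_lt).1 (hj ▸ hquot)
        intro a b
        by_cases hj2' : j = 2
        · haveI := IsPGroup.isMulCommutative_of_card_eq_prime_sq (hj2' ▸ hj)
          exact mul_comm' a b
        · haveI : IsCyclic (R ⧸ f.range) := by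
            rcases (show j = 0 ∨ j = 1 by omega) with rfl | rfl
            · rw [pow_zero] at hj
              haveI := (Nat.card_eq_one_iff_unique.1 hj).1
              infer_instance
            · exact isCyclic_of_prime_card (p := p) (by rw [hj, pow_one])
          obtain ⟨g, hg⟩ := IsCyclic.exists_generator (α := R ⧸ f.range)
          obtain ⟨i, hi⟩ := Subgroup.mem_zpowers_iff.1 (hg a)
          obtain ⟨l, hl⟩ := Subgroup.mem_zpowers_iff.1 (hg b)
          rw [← hi, ← hl]
          exact (Commute.refl g).zpow_zpow i l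
      rw [commutator_def, Subgroup.commutator_le]
      intro a _ b _
      rw [← QuotientGroup.eq_one_iff, ← QuotientGroup.mk'_apply, map_commutatorElement,
        commutatorElement_eq_one_iff_commute]
      exact hqc _ _
    obtain ⟨x, hzx, hxmax⟩ := Set.Finite.exists_maximalFor (fun x : R => orderOf x)
      {x : R | z1 ∈ Subgroup.zpowers x} (Set.toFinite _) ⟨z1, Subgroup.mem_zpowers z1⟩
    have hxΦ : x ∉ frattini R := by
      intro h
      obtain ⟨y, hy⟩ := (frattini_le_iff hR).2 ⟨hRP, fun g => ⟨g, rfl⟩⟩ h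
      have hy' : y ^ p = x := hy
      have hzy : z1 ∈ Subgroup.zpowers y :=
        Subgroup.zpowers_le.2 (hy' ▸ Subgroup.npow_mem_zpowers y p) hzx
      have hxne : x ≠ 1 := by
        rintro rfl
        rw [Set.mem_setOf_eq, Subgroup.zpowers_one_eq_bot, Subgroup.mem_bot] at hzx
        exact hz1ne hzx
      obtain ⟨e, he⟩ := IsPGroup.iff_orderOf.1 hR y
      have he1 : 1 ≤ e := by
        by_contra h0
        rw [show e = 0 by omega, pow_zero, orderOf_eq_one_iff] at he
        exact hxne (by rw [← hy', he, one_pow])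
      have hlt' : orderOf x < orderOf y := by
        rw [← hy', orderOf_pow' y hp.out.ne_zero, he, Nat.gcd_eq_right (dvd_pow_self p (by omega))]
        exact Nat.div_lt_self (pow_pos hp.out.pos e) hp.out.one_lt
      exact absurd (hxmax hzy hlt'.le) (not_le.2 hlt')
    refine isMetacyclic_of_zpowers hR hΦ hxΦ ⟨fun g hg a => ?_⟩
    have h1 : ⁅a, g⁆ ∈ Subgroup.zpowers x :=
      ((hRZ.trans (hZgen z1 hz1 hz1ne)).trans (Subgroup.zpowers_le.2 hzx))
        (Subgroup.commutator_mem_commutator (Subgroup.mem_top _) (Subgroup.mem_top _))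
    have h2 := mul_mem h1 hg
    rwa [commutatorElement_def, inv_mul_cancel_right] at h2

end CfsgLib.RegularP
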